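import Mathlib
import Cfsg.Agent.H496.CyclicCount
import Cfsg.Agent.H496.ThreePrimes

/-!
# Groups of odd order with three same-order class sizes: counting

`cnt G m` is the number of elements of order `m`.
-/

set_option autoImplicit false

namespace Cfsg.Agent.H496.ThreeSizes

open scoped Pointwise

universe u

/-- number of elements of order `m` -/
noncomputable def cnt (G : Type u) [Group G] (m : ℕ) : ℕ := Nat.card {g : G // orderOf g = m}

variable {G : Type u} [Group G] [Finite G]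

theorem cnt_pos_iff (m : ℕ) : 0 < cnt G m ↔ ∃ g : G, orderOf g = m := by
  unfold cnt
  rw [Nat.card_pos_iff]
  constructor
  · rintro ⟨⟨g, hg⟩, -⟩
    exact ⟨g, hg⟩
  · rintro ⟨g, hg⟩
    exact ⟨⟨⟨g, hg⟩⟩, inferInstance⟩

omit [Finite G] in
theorem cnt_one : cnt G 1 = 1 := by
  unfold cnt
  rw [Nat.card_eq_one_iff_unique]
  refine ⟨⟨fun a b => Subtype.ext ?_⟩, ⟨1, orderOf_one⟩⟩
  rw [orderOf_eq_one_iff.mp a.2, orderOf_eq_one_iff.mp b.2]

theorem totient_dvd_cnt (m : ℕ) : Nat.totient m ∣ cnt G m := by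
  have h := Cfsg.Agent.H496.CyclicCount.card_eq_totient_mul (G := G) (d := m) {g : G | orderOf g = m}
    (fun y hy => hy) (fun y hy y' hy' => by
      show orderOf y' = m
      rw [← show orderOf y = m from hy, ← Nat.card_zpowers, ← Nat.card_zpowers, hy'])
  exact ⟨_, h⟩

/-- the number of solutions of `g ^ n = 1` -/
theorem card_pow_eq_one {n : ℕ} (hn : n ≠ 0) :
    Nat.card {g : G // g ^ n = 1} = ∑ d ∈ n.divisors, cnt G d := by
  classical
  let f : {g : G // g ^ n = 1} → n.divisors := fun g =>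
    ⟨orderOf g.1, Nat.mem_divisors.mpr ⟨orderOf_dvd_of_pow_eq_one g.2, hn⟩⟩
  have h1 : Nat.card {g : G // g ^ n = 1} = Nat.card (Σ d : n.divisors, {g : {g : G // g ^ n = 1} // f g = d}) :=
    Nat.card_congr (Equiv.sigmaFiberEquiv f).symm
  rw [h1, Nat.card_sigma, ← Finset.sum_coe_sort n.divisors (fun d => cnt G d)]
  refine Finset.sum_congr rfl fun d _ => ?_
  unfold cnt
  refine Nat.card_congr ⟨fun g => ⟨g.1.1, congrArg Subtype.val g.2⟩, fun g => ⟨⟨g.1, ?_⟩, Subtype.ext g.2⟩, fun g => rfl, fun g => rfl⟩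
  rw [← orderOf_dvd_iff_pow_eq_one, g.2]
  exact (Nat.mem_divisors.mp d.2).1

theorem frob_sum {n : ℕ} (hn : n ∣ Nat.card G) : n ∣ ∑ d ∈ n.divisors, cnt G d := by
  have hn0 : n ≠ 0 := by
    rintro rfl
    exact Nat.card_pos.ne' (Nat.eq_zero_of_zero_dvd hn)
  rw [← card_pow_eq_one hn0]
  exact Cfsg.Agent.H418.Frob.frobenius_dvd n hn

theorem sum_divisors_mul {m n : ℕ} (hmn : m.Coprime n) (f : ℕ → ℕ) :
    ∑ d ∈ (m * n).divisors, f d = ∑ a ∈ m.divisors, ∑ b ∈ n.divisors, f (a * b) := by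
  rw [Nat.divisors_mul, Finset.mul_def, Finset.sum_image hmn.mul_injOn_divisors, Finset.sum_product]

theorem sum_divisors_prime {p : ℕ} (hp : p.Prime) (f : ℕ → ℕ) :
    ∑ d ∈ p.divisors, f d = f 1 + f p := by
  rw [hp.divisors, Finset.sum_pair hp.one_lt.ne]

/-- `|G|_p`-count when there are no elements of order `p ^ 2` -/
theorem pow_dvd_of_no_sq {p k : ℕ} (hp : p.Prime) (hno : cnt G (p ^ 2) = 0) (hk : 0 < k)
    (h : p ^ k ∣ Nat.card G) : p ^ k ∣ 1 + cnt G p := by
  have h1 := Cfsg.Agent.H418.Frob.frobenius_dvd (G := G) (p ^ k) h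
  have h2 : Nat.card {g : G // g ^ (p ^ k) = 1} = Nat.card {g : G // g ^ p = 1} := by
    refine Nat.card_congr (Equiv.subtypeEquivRight fun g => ⟨fun hg => ?_, fun hg => ?_⟩)
    · obtain ⟨j, hj, hjo⟩ := (Nat.dvd_prime_pow hp).mp (orderOf_dvd_of_pow_eq_one hg)
      rcases Nat.lt_or_ge j 2 with h3 | h3
      · rw [← orderOf_dvd_iff_pow_eq_one, hjo]
        calc p ^ j ∣ p ^ 1 := pow_dvd_pow p (by omega)
          _ = p := pow_one p
      · exfalso
        have h4 : 0 < cnt G (p ^ 2) := by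
          rw [cnt_pos_iff]
          refine ⟨g ^ p ^ (j - 2), ?_⟩
          rw [orderOf_pow_of_dvd (pow_pos hp.pos _).ne' (by rw [hjo]; exact pow_dvd_pow p (by omega)),
            hjo, Nat.pow_div (by omega) hp.pos]
          congr 1
          omega
        omega
    · obtain ⟨l, rfl⟩ : ∃ l, k = l + 1 := ⟨k - 1, by omega⟩
      rw [pow_succ', pow_mul, hg, one_pow]
  rw [h2, card_pow_eq_one hp.ne_zero, sum_divisors_prime hp, cnt_one] at h1
  exact h1

/-- the basic congruences -/
theorem cast_one {p : ℕ} (hp : p.Prime) (hpG : p ∣ Nat.card G) : (cnt G p : ZMod p) = -1 := by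
  have h1 := frob_sum hpG
  rw [sum_divisors_prime hp, cnt_one, ← ZMod.natCast_eq_zero_iff] at h1
  push_cast at h1
  linear_combination h1

theorem cast_two {p q : ℕ} (hp : p.Prime) (hq : q.Prime) (hpq : p ≠ q) (hpG : p ∣ Nat.card G)
    (hqG : q ∣ Nat.card G) : (cnt G q : ZMod p) + cnt G (p * q) = 0 := by
  have hc : p.Coprime q := (Nat.coprime_primes hp hq).mpr hpq
  have h1 := (dvd_mul_right p q).trans (frob_sum (hc.mul_dvd_of_dvd_of_dvd hpG hqG))
  rw [sum_divisors_mul hc, sum_divisors_prime hp, sum_divisors_prime hq, sum_divisors_prime hq,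
    ← ZMod.natCast_eq_zero_iff] at h1
  simp only [one_mul, mul_one, cnt_one] at h1
  push_cast at h1
  linear_combination h1 - cast_one hp hpG

theorem cast_three {p q r : ℕ} (hp : p.Prime) (hq : q.Prime) (hr : r.Prime) (hpq : p ≠ q)
    (hpr : p ≠ r) (hqr : q ≠ r) (hpG : p ∣ Nat.card G)
    (hqG : q ∣ Nat.card G) (hrG : r ∣ Nat.card G) :
    (cnt G (q * r) : ZMod p) + cnt G (p * (q * r)) = 0 := by
  have hc : q.Coprime r := (Nat.coprime_primes hq hr).mpr hqr
  have hc' : p.Coprime (q * r) := Nat.Coprime.mul_right ((Nat.coprime_primes hp hq).mpr hpq)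
    ((Nat.coprime_primes hp hr).mpr hpr)
  have h1 := (dvd_mul_right p (q * r)).trans (frob_sum (hc'.mul_dvd_of_dvd_of_dvd hpG
    (hc.mul_dvd_of_dvd_of_dvd hqG hrG)))
  rw [sum_divisors_mul hc', sum_divisors_prime hp, sum_divisors_mul hc, sum_divisors_mul hc,
    sum_divisors_prime hq, sum_divisors_prime hq, sum_divisors_prime hr, sum_divisors_prime hr,
    sum_divisors_prime hr, sum_divisors_prime hr,
    ← ZMod.natCast_eq_zero_iff] at h1
  simp only [one_mul, mul_one, cnt_one] at h1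
  push_cast at h1
  linear_combination h1 - cast_one hp hpG - cast_two hp hq hpq hpG hqG - cast_two hp hr hpr hpG hrG

theorem cnt_prime_pos {p : ℕ} (hp : p.Prime) (hpG : p ∣ Nat.card G) : 0 < cnt G p := by
  have : Fact p.Prime := ⟨hp⟩
  obtain ⟨g, hg⟩ := exists_prime_orderOf_dvd_card' p hpG
  exact (cnt_pos_iff p).mpr ⟨g, hg⟩

theorem two_ne_zero_zmod {p : ℕ} (hp : p.Prime) (hp2 : p ≠ 2) : (2 : ZMod p) ≠ 0 := by
  intro h
  have h1 : ((2 : ℕ) : ZMod p) = 0 := by exact_mod_cast h
  rw [ZMod.natCast_eq_zero_iff] at h1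
  exact hp2 ((Nat.prime_dvd_prime_iff_eq hp Nat.prime_two).mp h1)

theorem one_ne_zero_zmod {p : ℕ} (hp : p.Prime) : (1 : ZMod p) ≠ 0 := by
  have : Fact p.Prime := ⟨hp⟩
  exact one_ne_zero

/-- Two primes `p, q` with `cnt p = cnt q` and a third one `r` in the other class: impossible. -/
theorem claim_one {p q r : ℕ} (hp : p.Prime) (hq : q.Prime) (hr : r.Prime) (hpq : p ≠ q)
    (hpr : p ≠ r) (hqr : q ≠ r) (hpG : p ∣ Nat.card G) (hqG : q ∣ Nat.card G)
    (hrG : r ∣ Nat.card G) (hp2 : p ≠ 2) (hq2 : q ≠ 2) (hr2 : r ≠ 2)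
    (hval : ∀ m, m ≠ 1 → cnt G m ≠ 0 → cnt G m = cnt G p ∨ cnt G m = cnt G r)
    (hsame : cnt G q = cnt G p) : False := by
  have hp1 := cast_one (G := G) hp hpG
  have hq1 := cast_one (G := G) hq hqG
  have hr1 := cast_one (G := G) hr hrG
  have hA := cast_two (G := G) hp hq hpq hpG hqG
  rw [hsame, hp1] at hA
  have hpq1 : p * q ≠ 1 := by
    intro h
    exact hp.one_lt.ne' (Nat.eq_one_of_mul_eq_one_right h)
  have hspq : cnt G (p * q) = cnt G r := by
    have h0 : cnt G (p * q) ≠ 0 := by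
      intro h
      rw [h, Nat.cast_zero, add_zero] at hA
      exact one_ne_zero_zmod hp (by linear_combination -hA)
    rcases hval _ hpq1 h0 with h | h
    · rw [h, hp1] at hA
      exact absurd (by linear_combination -hA) (two_ne_zero_zmod hp hp2)
    · exact h
  rw [hspq] at hA
  -- `cnt r = 1` in `ZMod p`
  have hB := cast_two (G := G) hp hr hpr hpG hrG
  have hpr1 : p * r ≠ 1 := by
    intro h
    exact hp.one_lt.ne' (Nat.eq_one_of_mul_eq_one_right h)
  have hspr : cnt G (p * r) = cnt G p := by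
    have h0 : cnt G (p * r) ≠ 0 := by
      intro h
      rw [h, Nat.cast_zero, add_zero] at hB
      exact one_ne_zero_zmod hp (by linear_combination hB - hA)
    rcases hval _ hpr1 h0 with h | h
    · exact h
    · rw [h] at hB
      exact absurd (by linear_combination hB - 2 * hA) (two_ne_zero_zmod hp hp2)
  -- modulo `q`
  have hA' := cast_two (G := G) hq hp hpq.symm hqG hpG
  have hB' := cast_two (G := G) hq hr hqr hqG hrG
  rw [mul_comm q p, hspq, ← hsame, hq1] at hA'
  have hqr1 : q * r ≠ 1 := by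
    intro h
    exact hq.one_lt.ne' (Nat.eq_one_of_mul_eq_one_right h)
  have hsqr : cnt G (q * r) = cnt G p := by
    have h0 : cnt G (q * r) ≠ 0 := by
      intro h
      rw [h, Nat.cast_zero, add_zero] at hB'
      exact one_ne_zero_zmod hq (by linear_combination hB' - hA')
    rcases hval _ hqr1 h0 with h | h
    · exact h
    · rw [h] at hB'
      exact absurd (by linear_combination hB' - 2 * hA') (two_ne_zero_zmod hq hq2)
  -- the triple product
  have hC := cast_three (G := G) hp hq hr hpq hpr hqr hpG hqG hrG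
  rw [hsqr, hp1] at hC
  have hpqr1 : p * (q * r) ≠ 1 := by
    intro h
    exact hp.one_lt.ne' (Nat.eq_one_of_mul_eq_one_right h)
  have hspqr : cnt G (p * (q * r)) = cnt G r := by
    have h0 : cnt G (p * (q * r)) ≠ 0 := by
      intro h
      rw [h, Nat.cast_zero, add_zero] at hC
      exact one_ne_zero_zmod hp (by linear_combination -hC)
    rcases hval _ hpqr1 h0 with h | h
    · rw [h, hp1] at hC
      exact absurd (by linear_combination -hC) (two_ne_zero_zmod hp hp2)
    · exact h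
  have hD := cast_three (G := G) hr hp hq hpr.symm hqr.symm hpq hrG hpG hqG
  rw [show r * (p * q) = p * (q * r) by ring, hspq, hspqr, hr1] at hD
  exact absurd (by linear_combination -hD) (two_ne_zero_zmod hr hr2)

theorem card_eq_sum : Nat.card G = ∑ d ∈ (Nat.card G).divisors, cnt G d := by
  rw [← card_pow_eq_one Nat.card_pos.ne']
  have h : ∀ g : G, g ^ Nat.card G = 1 := fun g => pow_card_eq_one'
  simp only [h]
  exact (Nat.card_congr (Equiv.subtypeUnivEquiv (fun _ => trivial))).symm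

/-- `|G| ≥ 1 + cnt p + cnt q` -/
theorem card_ge {p q : ℕ} (hp : p.Prime) (hq : q.Prime) (hpq : p ≠ q) (hpG : p ∣ Nat.card G)
    (hqG : q ∣ Nat.card G) : 1 + cnt G p + cnt G q ≤ Nat.card G := by
  rw [card_eq_sum (G := G)]
  have hsub : ({1, p, q} : Finset ℕ) ⊆ (Nat.card G).divisors := by
    intro d hd
    simp only [Finset.mem_insert, Finset.mem_singleton] at hd
    rw [Nat.mem_divisors]
    refine ⟨?_, Nat.card_pos.ne'⟩
    rcases hd with rfl | rfl | rfl
    · exact one_dvd _
    · exact hpG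
    · exact hqG
  have h1 := Finset.sum_le_sum_of_subset (f := fun d => cnt G d) hsub
  rw [Finset.sum_insert, Finset.sum_pair hpq, cnt_one] at h1
  · omega
  · simp only [Finset.mem_insert, Finset.mem_singleton]
    rintro (h | h)
    · exact hp.one_lt.ne h
    · exact hq.one_lt.ne h

/-- Two primes in the same class: impossible. -/
theorem claim_two (hodd : Odd (Nat.card G)) {a b : ℕ} (hab : a ≠ b)
    (hval : ∀ m, m ≠ 1 → cnt G m ≠ 0 → cnt G m = a ∨ cnt G m = b)
    {p q : ℕ} (hp : p.Prime) (hq : q.Prime) (hpq : p ≠ q) (hpG : p ∣ Nat.card G)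
    (hqG : q ∣ Nat.card G) : cnt G p ≠ cnt G q := by
  intro hsame
  have h2 : ∀ r : ℕ, r.Prime → r ∣ Nat.card G → r ≠ 2 := by
    rintro r - h rfl
    exact (Nat.not_even_iff_odd.mpr hodd) (even_iff_two_dvd.mpr h)
  -- the other value
  obtain ⟨B, hB, hvalB⟩ : ∃ B, cnt G p ≠ B ∧ ∀ m, m ≠ 1 → cnt G m ≠ 0 →
      cnt G m = cnt G p ∨ cnt G m = B := by
    rcases hval p hp.one_lt.ne' (cnt_prime_pos hp hpG).ne' with h | h
    · exact ⟨b, by rw [h]; exact hab, fun m hm hm0 => by rw [h]; exact hval m hm hm0⟩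
    · exact ⟨a, by rw [h]; exact hab.symm, fun m hm hm0 => by rw [h]; exact (hval m hm hm0).symm⟩
  have hall : ∀ r : ℕ, r.Prime → r ∣ Nat.card G → cnt G r = cnt G p := by
    intro r hr hrG
    by_contra hne
    have hrB : cnt G r = B := (hvalB r hr.one_lt.ne' (cnt_prime_pos hr hrG).ne').resolve_left hne
    refine claim_one hp hq hr hpq ?_ ?_ hpG hqG hrG (h2 p hp hpG) (h2 q hq hqG) (h2 r hr hrG) ?_ hsame.symm
    · rintro rfl
      exact hne rfl
    · rintro rfl
      exact hne hsame.symm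
    · rw [hrB]
      exact hvalB
  have hno : ∀ r : ℕ, r.Prime → r ∣ Nat.card G → cnt G (r ^ 2) = 0 := by
    intro r hr hrG
    obtain ⟨r', hr', hrr', hr'G⟩ : ∃ r' : ℕ, r'.Prime ∧ r ≠ r' ∧ r' ∣ Nat.card G := by
      by_cases h : r = p
      · exact ⟨q, hq, by rw [h]; exact hpq, hqG⟩
      · exact ⟨p, hp, h, hpG⟩
    have h3 := cast_one (G := G) hr hrG
    have h4 := cast_two (G := G) hr hr' hrr' hrG hr'G
    rw [hall r hr hrG] at h3
    rw [hall r' hr' hr'G, h3] at h4
    have h5 : cnt G (r * r') = B := by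
      have h0 : cnt G (r * r') ≠ 0 := by
        intro h
        rw [h, Nat.cast_zero, add_zero] at h4
        exact one_ne_zero_zmod hr (by linear_combination -h4)
      rcases hvalB _ (fun h => hr.one_lt.ne' (Nat.eq_one_of_mul_eq_one_right h)) h0 with h | h
      · rw [h, h3] at h4
        exact absurd (by linear_combination -h4) (two_ne_zero_zmod hr (h2 r hr hrG))
      · exact h
    rw [h5] at h4
    by_contra h0
    have h6 : (cnt G (r ^ 2) : ZMod r) = 0 := by
      rw [ZMod.natCast_eq_zero_iff]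
      refine dvd_trans ?_ (totient_dvd_cnt (G := G) (r ^ 2))
      rw [Nat.totient_prime_pow_succ hr]
      simp
    rcases hvalB _ (by
      intro h
      have := Nat.one_lt_pow (n := 2) (by norm_num) hr.one_lt
      omega) h0 with h | h
    · rw [h, h3] at h6
      exact one_ne_zero_zmod hr (by linear_combination -h6)
    · rw [h] at h6
      exact one_ne_zero_zmod hr (by linear_combination h6 - h4)
  have hdvd : Nat.card G ∣ 1 + cnt G p := by
    rw [Nat.dvd_iff_prime_pow_dvd_dvd]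
    intro r k hr hrk
    rcases Nat.eq_zero_or_pos k with rfl | hk
    · simp
    have hrG : r ∣ Nat.card G := (dvd_pow_self r hk.ne').trans hrk
    rw [← hall r hr hrG]
    exact pow_dvd_of_no_sq hr (hno r hr hrG) hk hrk
  have h7 := Nat.le_of_dvd (by omega) hdvd
  have h8 := card_ge hp hq hpq hpG hqG
  have h9 := cnt_prime_pos hq hqG
  omega

theorem claim_three (hodd : Odd (Nat.card G)) {a b : ℕ} (hab : a ≠ b)
    (hval : ∀ m, m ≠ 1 → cnt G m ≠ 0 → cnt G m = a ∨ cnt G m = b) :
    (Nat.card G).primeFactors.card ≤ 2 := by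
  by_contra hcon
  push Not at hcon
  obtain ⟨p, hp, q, hq, r, hr, hpq, hpr, hqr⟩ := Finset.two_lt_card.mp hcon
  rw [Nat.mem_primeFactors] at hp hq hr
  have h1 := claim_two hodd hab hval hp.1 hq.1 hpq hp.2.1 hq.2.1
  have h2 := claim_two hodd hab hval hp.1 hr.1 hpr hp.2.1 hr.2.1
  have h3 := claim_two hodd hab hval hq.1 hr.1 hqr hq.2.1 hr.2.1
  have hv : ∀ p : ℕ, p.Prime ∧ p ∣ Nat.card G ∧ Nat.card G ≠ 0 → cnt G p = a ∨ cnt G p = b :=
    fun p hp => hval p hp.1.one_lt.ne' (cnt_prime_pos hp.1 hp.2.1).ne'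
  rcases hv p hp with hp' | hp' <;> rcases hv q hq with hq' | hq' <;>
    rcases hv r hr with hr' | hr' <;> omega

/-- conjugation on elements of order `m` -/
@[reducible] def ordAction (P : Subgroup G) (m : ℕ) : MulAction P {g : G // orderOf g = m} where
  smul g y := ⟨(g : G) * y.1 * (g : G)⁻¹, by
    exact (orderOf_injective (MulAut.conj (g : G)).toMonoidHom (MulAut.conj (g : G)).injective y.1).trans y.2⟩
  one_smul y := by
    apply Subtype.ext
    show ((1 : P) : G) * y.1 * ((1 : P) : G)⁻¹ = y.1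
    simp
  mul_smul g h y := by
    apply Subtype.ext
    show ((g * h : P) : G) * y.1 * ((g * h : P) : G)⁻¹ = (g : G) * ((h : G) * y.1 * (h : G)⁻¹) * (g : G)⁻¹
    rw [Subgroup.coe_mul]
    group

/-- If `p` does not divide the number of elements of order `m`, every `p`-subgroup centralises one
of them. -/
theorem exists_centralized {p : ℕ} [Fact p.Prime] {P : Subgroup G} (hP : IsPGroup p P) {m : ℕ}
    (h : ¬ p ∣ cnt G m) : ∃ y : G, orderOf y = m ∧ ∀ g ∈ P, g * y = y * g := by
  let := ordAction P m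
  have h1 : Nat.card {g : G // orderOf g = m} ≡
      Nat.card (MulAction.fixedPoints P {g : G // orderOf g = m}) [MOD p] :=
    hP.card_modEq_card_fixedPoints _
  have h2 : Nat.card (MulAction.fixedPoints P {g : G // orderOf g = m}) ≠ 0 := by
    intro h0
    rw [h0] at h1
    exact h ((Nat.modEq_zero_iff_dvd).mp h1)
  have h3 : Nonempty (MulAction.fixedPoints P {g : G // orderOf g = m}) := by
    by_contra hne
    rw [not_nonempty_iff] at hne
    exact h2 (Nat.card_of_isEmpty)
  obtain ⟨y, hy⟩ := h3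
  refine ⟨y.1, y.2, fun g hg => ?_⟩
  have h4 : g * y.1 * g⁻¹ = y.1 := congrArg Subtype.val (hy ⟨g, hg⟩)
  rwa [mul_inv_eq_iff_eq_mul] at h4

theorem isPGroup_zpowers {p : ℕ} {x : G} {k : ℕ} (hx : orderOf x = p ^ k) :
    IsPGroup p (Subgroup.zpowers x) := by
  apply IsPGroup.of_card (n := k)
  rw [Nat.card_zpowers, hx]

theorem mul_le_cnt {p q : ℕ} (hp : p.Prime) (hq : q.Prime) (hpq : p ≠ q)
    (h : ¬ p ∣ cnt G q) : (q - 1) * cnt G p ≤ cnt G (q * p) := by
  classical
  have : Fact p.Prime := ⟨hp⟩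
  have h1 : cnt G (q * p) = Nat.totient q * Nat.card (Cfsg.Agent.H496.CyclicCount.Pairs G q p) :=
    Cfsg.Agent.H496.CyclicCount.card_orderOf_eq ((Nat.coprime_primes hq hp).mpr hpq.symm)
  rw [h1, Nat.totient_prime hq]
  apply Nat.mul_le_mul_left
  have h2 : ∀ x : {x : G // orderOf x = p}, ∃ y : G, orderOf y = q ∧ Commute y x.1 := by
    intro x
    have hx : IsPGroup p (Subgroup.zpowers x.1) := isPGroup_zpowers (k := 1) (by rw [x.2, pow_one])
    obtain ⟨y, hy1, hy2⟩ := exists_centralized hx h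
    exact ⟨y, hy1, (hy2 x.1 (Subgroup.mem_zpowers x.1)).symm⟩
  choose y hy1 hy2 using h2
  let f : {x : G // orderOf x = p} → Cfsg.Agent.H496.CyclicCount.Pairs G q p :=
    fun x => ⟨(x.1, Subgroup.zpowers (y x)), x.2, y x, ⟨hy1 x, hy2 x⟩, rfl⟩
  have hf : Function.Injective f := by
    intro x x' hxx
    exact Subtype.ext (congrArg (fun z => z.1.1) hxx)
  exact Nat.card_le_card_of_injective f hf

/-- no elements of order `p * q` -/
theorem claim_four (hodd : Odd (Nat.card G)) {a b : ℕ} (hab : a ≠ b)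
    (hval : ∀ m, m ≠ 1 → cnt G m ≠ 0 → cnt G m = a ∨ cnt G m = b)
    {p q : ℕ} (hp : p.Prime) (hq : q.Prime) (hpq : p ≠ q) (hpG : p ∣ Nat.card G)
    (hqG : q ∣ Nat.card G) : cnt G (p * q) = 0 := by
  have h2 : ∀ r : ℕ, r.Prime → r ∣ Nat.card G → r ≠ 2 := by
    rintro r - h rfl
    exact (Nat.not_even_iff_odd.mpr hodd) (even_iff_two_dvd.mpr h)
  have hne := claim_two hodd hab hval hp hq hpq hpG hqG
  -- it is not `cnt p`
  have key : ∀ {p q : ℕ}, p.Prime → q.Prime → p ≠ q → p ∣ Nat.card G → q ∣ Nat.card G →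
      cnt G (p * q) ≠ cnt G p := by
    intro p q hp hq hpq hpG hqG h
    have h3 := cast_two (G := G) hp hq hpq hpG hqG
    rw [h, cast_one hp hpG] at h3
    have h4 : ¬ p ∣ cnt G q := by
      intro h5
      rw [← ZMod.natCast_eq_zero_iff] at h5
      rw [h5] at h3
      exact one_ne_zero_zmod hp (by linear_combination -h3)
    have h5 := mul_le_cnt hp hq hpq h4
    rw [mul_comm q p, h] at h5
    have h6 := cnt_prime_pos hp hpG
    have h7 : 2 ≤ q - 1 := by
      have := hq.two_le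
      have := h2 q hq hqG
      omega
    have h8 : 2 * cnt G p ≤ (q - 1) * cnt G p := Nat.mul_le_mul_right _ h7
    omega
  by_contra h0
  have h3 := key hp hq hpq hpG hqG
  have h4 := key hq hp hpq.symm hqG hpG
  rw [mul_comm q p] at h4
  have hv := hval _ (fun h => hp.one_lt.ne' (Nat.eq_one_of_mul_eq_one_right h)) h0
  have hvp := hval p hp.one_lt.ne' (cnt_prime_pos hp hpG).ne'
  have hvq := hval q hq.one_lt.ne' (cnt_prime_pos hq hqG).ne'
  rcases hv with hv | hv <;> rcases hvp with hvp | hvp <;> rcases hvq with hvq | hvq <;> omega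

end Cfsg.Agent.H496.ThreeSizes
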